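import Mathlib

set_option autoImplicit false

namespace Cfsg.Agent.Lib.Helper23

/-- Commuting pairs of `X` inject into commuting pairs of a subgroup `Y` times two cosets. -/
theorem commPairs_inj {X : Type*} [Group X] (Y : Subgroup X) :
    ∃ F : {p : X × X // Commute p.1 p.2} → {p : Y × Y // Commute p.1 p.2} × (X ⧸ Y) × (X ⧸ Y),
      Function.Injective F ∧
      (∀ p, (F p).2.1 = (p.1.1 : X ⧸ Y) ∧ (F p).2.2 = (p.1.2 : X ⧸ Y)) ∧
      (∀ p, Commute (((F p).1.1.2 : Y) : X) p.1.1) := by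
  classical
  have hr : ∀ (x : X) (c : X ⧸ Y), ∃ y₀ : X,
      (∃ y : X, (y : X ⧸ Y) = c ∧ Commute x y) → ((y₀ : X ⧸ Y) = c ∧ Commute x y₀) := by
    intro x c
    by_cases h : ∃ y : X, (y : X ⧸ Y) = c ∧ Commute x y
    · obtain ⟨y, hy⟩ := h; exact ⟨y, fun _ => hy⟩
    · exact ⟨1, fun h' => absurd h' h⟩
  choose r hr using hr
  let nn : X → X → X := fun x y => (r x (y : X ⧸ Y))⁻¹ * y
  let uu : X → X → X := fun x y => (r (nn x y) (x : X ⧸ Y))⁻¹ * x
  have hn_mem : ∀ x y : X, Commute x y → nn x y ∈ Y := by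
    intro x y h
    have := (hr x (y : X ⧸ Y) ⟨y, rfl, h⟩).1
    exact QuotientGroup.eq.mp this
  have hn_comm : ∀ x y : X, Commute x y → Commute x (nn x y) := by
    intro x y h
    have := (hr x (y : X ⧸ Y) ⟨y, rfl, h⟩).2
    exact this.inv_right.mul_right h
  have hu_mem : ∀ x y : X, Commute x y → uu x y ∈ Y := by
    intro x y h
    have := (hr (nn x y) (x : X ⧸ Y) ⟨x, rfl, (hn_comm x y h).symm⟩).1
    exact QuotientGroup.eq.mp this
  have hu_comm : ∀ x y : X, Commute x y → Commute (uu x y) (nn x y) := by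
    intro x y h
    have := (hr (nn x y) (x : X ⧸ Y) ⟨x, rfl, (hn_comm x y h).symm⟩).2
    exact (this.inv_right.mul_right (hn_comm x y h).symm).symm
  refine ⟨fun p => (⟨(⟨uu p.1.1 p.1.2, hu_mem _ _ p.2⟩, ⟨nn p.1.1 p.1.2, hn_mem _ _ p.2⟩),
      Subtype.ext (hu_comm _ _ p.2).eq⟩, (p.1.1 : X ⧸ Y), (p.1.2 : X ⧸ Y)), ?_, ?_, ?_⟩
  · rintro ⟨⟨x, y⟩, h⟩ ⟨⟨x', y'⟩, h'⟩ heq
    have hu : uu x y = uu x' y' := congrArg (fun q => ((q.1.1.1 : Y) : X)) heq
    have hn : nn x y = nn x' y' := congrArg (fun q => ((q.1.1.2 : Y) : X)) heq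
    have hx : (x : X ⧸ Y) = (x' : X ⧸ Y) := congrArg (fun q => q.2.1) heq
    have hy : (y : X ⧸ Y) = (y' : X ⧸ Y) := congrArg (fun q => q.2.2) heq
    have hxx : x = x' := by
      have h1 : (r (nn x y) (x : X ⧸ Y))⁻¹ * x = (r (nn x' y') (x' : X ⧸ Y))⁻¹ * x' := hu
      rw [hn, hx] at h1
      exact mul_left_cancel h1
    subst hxx
    have h2 : (r x (y : X ⧸ Y))⁻¹ * y = (r x (y' : X ⧸ Y))⁻¹ * y' := hn
    rw [hy] at h2
    have h3 := mul_left_cancel h2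
    subst h3
    rfl
  · intro p
    exact ⟨rfl, rfl⟩
  · intro p
    exact (hn_comm _ _ p.2).symm

end Cfsg.Agent.Lib.Helper23
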